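import Mathlib
import Cfsg.Prelude.Def_OddOrderLocal

/-!
# S2536, package PK2: setwise stabilizers in the symmetric group (helper78)
-/

set_option autoImplicit false

namespace Cfsg.Agent.Lib.Helper78.HT

open scoped Pointwise

/-- The setwise stabilizer of a finset in the symmetric group. -/
def setStab {Ω : Type*} (s : Finset Ω) : Subgroup (Equiv.Perm Ω) where
  carrier := {σ | ∀ x, σ x ∈ s ↔ x ∈ s}
  mul_mem' := by
    intro a b ha hb x
    rw [Equiv.Perm.mul_apply, ha (b x), hb x]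
  one_mem' := by
    intro x
    rfl
  inv_mem' := by
    intro a ha x
    rw [← ha (a⁻¹ x)]
    simp

theorem mem_setStab {Ω : Type*} {s : Finset Ω} {σ : Equiv.Perm Ω} :
    σ ∈ setStab s ↔ ∀ x, σ x ∈ s ↔ x ∈ s := Iff.rfl

/-- `σ • s = s` (pointwise action on finsets) iff `σ` stabilizes `s` setwise. -/
theorem smul_finset_eq_iff {Ω : Type*} [DecidableEq Ω] (s : Finset Ω) (σ : Equiv.Perm Ω) :
    σ • s = s ↔ ∀ x, σ x ∈ s ↔ x ∈ s := by
  constructor
  · intro h x
    have h1 : σ • x ∈ σ • s ↔ x ∈ s := Finset.smul_mem_smul_finset_iff σ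
    rw [h] at h1
    exact h1
  · intro h
    ext y
    rw [← Finset.inv_smul_mem_iff, ← h (σ⁻¹ • y)]
    simp

theorem setStab_eq_stabilizer {Ω : Type*} [DecidableEq Ω] (s : Finset Ω) :
    setStab s = MulAction.stabilizer (Equiv.Perm Ω) s := by
  ext σ
  rw [MulAction.mem_stabilizer_iff, smul_finset_eq_iff]
  rfl

theorem index_setStab {Ω : Type*} [Fintype Ω] [DecidableEq Ω] (s : Finset Ω) :
    (setStab s).index = (Fintype.card Ω).choose s.card := by
  have hpre : MulAction.IsPretransitive (Equiv.Perm Ω) (Set.powersetCard Ω s.card) :=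
    Set.powersetCard.isPretransitive
  have h1 := MulAction.index_stabilizer_of_transitive (Equiv.Perm Ω)
    (⟨s, rfl⟩ : Set.powersetCard Ω s.card)
  rw [Set.powersetCard.card, Nat.card_eq_fintype_card] at h1
  rw [← h1]
  congr 1
  ext σ
  rw [mem_setStab, ← smul_finset_eq_iff, MulAction.mem_stabilizer_iff, ← Subtype.coe_inj,
    Set.powersetCard.coe_smul]

theorem hall_choose {Ω : Type*} [Fintype Ω] [DecidableEq Ω] {π : Set ℕ} {H : Subgroup (Equiv.Perm Ω)} (hH : Cfsg.IsPiHall π H)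
    (s : Finset Ω) (hs : ∀ h ∈ H, ∀ x, h x ∈ s ↔ x ∈ s) :
    ∀ p : ℕ, p.Prime → p ∈ π → ¬ p ∣ (Fintype.card Ω).choose s.card := by
  intro p hp hpπ hdvd
  have hle : H ≤ setStab s := fun h hh => hs h hh
  have h1 : (setStab s).index ∣ H.index := Subgroup.index_dvd_of_le hle
  rw [index_setStab] at h1
  exact hH.2 p hp hpπ (hdvd.trans h1)

end Cfsg.Agent.Lib.Helper78.HT
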