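import Mathlib
import Cfsg.Prelude.Def_OddOrderLocal
import Cfsg.Prelude.Def_HallClasses
import Cfsg.Agent.Lib.Helper78.HT.SetStab

/-!
# S2536, package PK7: the Hall subgroups of `S_p`, `S_7`, `S_8` (helper78)
-/

set_option autoImplicit false

namespace Cfsg.Agent.Lib.Helper78.HT

open scoped Pointwise

/-- Order times index in `S_n`. -/
theorem card_mul_index_perm (n : ℕ) (H : Subgroup (Equiv.Perm (Fin n))) :
    Nat.card H * H.index = n.factorial := by
  rw [Subgroup.card_mul_index, Nat.card_eq_fintype_card, Fintype.card_perm, Fintype.card_fin]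

theorem prime_dvd_two_three (p a b : ℕ) (hp : p.Prime) (h : p ∣ 2 ^ a * 3 ^ b) :
    p = 2 ∨ p = 3 := by
  rcases (Nat.Prime.dvd_mul hp).mp h with h | h
  · left
    exact (Nat.prime_dvd_prime_iff_eq hp Nat.prime_two).mp (hp.dvd_of_dvd_pow h)
  · right
    exact (Nat.prime_dvd_prime_iff_eq hp Nat.prime_three).mp (hp.dvd_of_dvd_pow h)

theorem prime_dvd_thirty_five (p : ℕ) (hp : p.Prime) (h : p ∣ 35) : p = 5 ∨ p = 7 := by
  have h' : p ∣ 5 * 7 := h
  rcases (Nat.Prime.dvd_mul hp).mp h' with h | h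
  · left
    exact (Nat.prime_dvd_prime_iff_eq hp (by norm_num)).mp h
  · right
    exact (Nat.prime_dvd_prime_iff_eq hp (by norm_num)).mp h

/-- `S_p` (`p` prime) has a Hall subgroup for the set of primes smaller than `p`:
a point stabilizer. -/
theorem hall_exists_prime (n : ℕ) (hn : n.Prime) (π : Set ℕ)
    (hπ : ∀ r : ℕ, r.Prime → r ≤ n → (r ∈ π ↔ r < n)) :
    Cfsg.IsEPiGroup π (Equiv.Perm (Fin n)) := by
  have : NeZero n := ⟨hn.ne_zero⟩
  have hidx : (setStab ({(0 : Fin n)} : Finset (Fin n))).index = n := by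
    rw [index_setStab, Fintype.card_fin, Finset.card_singleton, Nat.choose_one_right]
  have hcard := card_mul_index_perm n (setStab ({(0 : Fin n)} : Finset (Fin n)))
  rw [hidx] at hcard
  have hcard' : Nat.card (setStab ({(0 : Fin n)} : Finset (Fin n))) = (n - 1).factorial := by
    have h1 : n.factorial = n * (n - 1).factorial := by
      obtain ⟨m, rfl⟩ := Nat.exists_eq_succ_of_ne_zero hn.ne_zero
      simp [Nat.factorial_succ]
    rw [h1, mul_comm] at hcard
    exact Nat.eq_of_mul_eq_mul_left hn.pos hcard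
  refine ⟨setStab ({(0 : Fin n)} : Finset (Fin n)), ?_, ?_⟩
  · intro p hp hdvd
    rw [hcard'] at hdvd
    have hle : p ≤ n - 1 := (Nat.Prime.dvd_factorial hp).mp hdvd
    have hlt : p < n := by
      have := hn.pos
      omega
    exact (hπ p hp hlt.le).mpr hlt
  · intro p hp hpπ hdvd
    rw [hidx] at hdvd
    have hpn : p = n := (Nat.prime_dvd_prime_iff_eq hp hn).mp hdvd
    subst hpn
    exact absurd ((hπ p hp le_rfl).mp hpπ) (lt_irrefl _)

/-- `S_7` has a Hall `{2,3}`-subgroup: the stabilizer of a 3-set. -/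
theorem hall_exists_seven (π : Set ℕ)
    (hπ : ∀ r : ℕ, r.Prime → r ≤ 7 → (r ∈ π ↔ (r = 2 ∨ r = 3))) :
    Cfsg.IsEPiGroup π (Equiv.Perm (Fin 7)) := by
  have hidx : (setStab ({0, 1, 2} : Finset (Fin 7))).index = 35 := by
    rw [index_setStab, Fintype.card_fin]
    have : ({0, 1, 2} : Finset (Fin 7)).card = 3 := by decide
    rw [this]
    decide
  have hcard := card_mul_index_perm 7 (setStab ({0, 1, 2} : Finset (Fin 7)))
  rw [hidx] at hcard
  have hfac : Nat.factorial 7 = 5040 := by decide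
  have hcard' : Nat.card (setStab ({0, 1, 2} : Finset (Fin 7))) = 2 ^ 4 * 3 ^ 2 := by
    rw [hfac] at hcard
    omega
  refine ⟨setStab ({0, 1, 2} : Finset (Fin 7)), ?_, ?_⟩
  · intro p hp hdvd
    rw [hcard'] at hdvd
    rcases prime_dvd_two_three p 4 2 hp hdvd with h | h
    · exact (hπ p hp (by omega)).mpr (Or.inl h)
    · exact (hπ p hp (by omega)).mpr (Or.inr h)
  · intro p hp hpπ hdvd
    rw [hidx] at hdvd
    rcases prime_dvd_thirty_five p hp hdvd with h | h
    · have := (hπ p hp (by omega)).mp hpπ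
      omega
    · have := (hπ p hp (by omega)).mp hpπ
      omega

/-- The stabilizer of the partition `{E, Eᶜ}`. -/
def pairStab {Ω : Type*} (E : Finset Ω) : Subgroup (Equiv.Perm Ω) where
  carrier := {σ | (∀ x, σ x ∈ E ↔ x ∈ E) ∨ (∀ x, σ x ∈ E ↔ x ∉ E)}
  mul_mem' := by
    rintro a b (ha | ha) (hb | hb)
    · left
      intro x
      rw [Equiv.Perm.mul_apply, ha, hb]
    · right
      intro x
      rw [Equiv.Perm.mul_apply, ha, hb]
    · right
      intro x
      rw [Equiv.Perm.mul_apply, ha, hb]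
    · left
      intro x
      rw [Equiv.Perm.mul_apply, ha, hb, not_not]
  one_mem' := Or.inl (fun x => Iff.rfl)
  inv_mem' := by
    rintro a (ha | ha)
    · left
      intro x
      rw [← ha (a⁻¹ x)]
      simp
    · right
      intro x
      have h1 := ha (a⁻¹ x)
      have h2 : a (a⁻¹ x) = x := by simp
      rw [h2] at h1
      tauto

theorem index_pairStab {Ω : Type*} [Fintype Ω] [DecidableEq Ω] [Nonempty Ω] (E : Finset Ω)
    (hE : Eᶜ.card = E.card) :
    2 * (pairStab E).index = (Fintype.card Ω).choose E.card := by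
  have hle : setStab E ≤ pairStab E := fun σ hσ => Or.inl hσ
  have hrel : (setStab E).relIndex (pairStab E) = 2 := by
    rw [Subgroup.relIndex_eq_two_iff]
    -- a swapping permutation
    have hpre : MulAction.IsPretransitive (Equiv.Perm Ω) (Set.powersetCard Ω E.card) :=
      Set.powersetCard.isPretransitive
    obtain ⟨τ, hτ⟩ := MulAction.exists_smul_eq (Equiv.Perm Ω)
      (⟨E, rfl⟩ : Set.powersetCard Ω E.card) (⟨Eᶜ, hE⟩ : Set.powersetCard Ω E.card)
    have hτ' : τ • E = Eᶜ := by
      have := congrArg (Subtype.val) hτ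
      rwa [Set.powersetCard.coe_smul] at this
    have hτs : ∀ x, τ x ∈ E ↔ x ∉ E := by
      intro x
      have h1 : τ • x ∈ τ • E ↔ x ∈ E := Finset.smul_mem_smul_finset_iff τ
      rw [hτ', Finset.mem_compl] at h1
      have h2 : τ • x = τ x := rfl
      rw [h2] at h1
      tauto
    have hx : ∀ σ : Equiv.Perm Ω, (∀ x, σ x ∈ E ↔ x ∈ E) → (∀ x, σ x ∈ E ↔ x ∉ E) → False := by
      intro σ h1 h2
      obtain ⟨x⟩ := ‹Nonempty Ω›
      have := h1 x
      have := h2 x
      tauto
    refine ⟨τ, Or.inr hτs, ?_⟩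
    rintro b (hb | hb)
    · right
      refine ⟨hb, fun hbt => ?_⟩
      apply hx (b * τ) hbt
      intro x
      rw [Equiv.Perm.mul_apply, hb, hτs]
    · left
      refine ⟨?_, fun hbK => hx b hbK hb⟩
      intro x
      rw [Equiv.Perm.mul_apply, hb, hτs, not_not]
  have := Subgroup.relIndex_mul_index hle
  rw [hrel, index_setStab] at this
  exact this

/-- `S_8` has a Hall `{2,3}`-subgroup: the stabilizer of a partition into two 4-sets. -/
theorem hall_exists_eight (π : Set ℕ)
    (hπ : ∀ r : ℕ, r.Prime → r ≤ 8 → (r ∈ π ↔ (r = 2 ∨ r = 3))) :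
    Cfsg.IsEPiGroup π (Equiv.Perm (Fin 8)) := by
  have hidx : (pairStab ({0, 1, 2, 3} : Finset (Fin 8))).index = 35 := by
    have h1 := index_pairStab ({0, 1, 2, 3} : Finset (Fin 8)) (by decide)
    rw [Fintype.card_fin] at h1
    have h2 : ({0, 1, 2, 3} : Finset (Fin 8)).card = 4 := by decide
    rw [h2] at h1
    have h3 : Nat.choose 8 4 = 70 := by decide
    omega
  have hcard := card_mul_index_perm 8 (pairStab ({0, 1, 2, 3} : Finset (Fin 8)))
  rw [hidx] at hcard
  have hfac : Nat.factorial 8 = 40320 := by decide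
  have hcard' : Nat.card (pairStab ({0, 1, 2, 3} : Finset (Fin 8))) = 2 ^ 7 * 3 ^ 2 := by
    rw [hfac] at hcard
    omega
  refine ⟨pairStab ({0, 1, 2, 3} : Finset (Fin 8)), ?_, ?_⟩
  · intro p hp hdvd
    rw [hcard'] at hdvd
    rcases prime_dvd_two_three p 7 2 hp hdvd with h | h
    · exact (hπ p hp (by omega)).mpr (Or.inl h)
    · exact (hπ p hp (by omega)).mpr (Or.inr h)
  · intro p hp hpπ hdvd
    rw [hidx] at hdvd
    rcases prime_dvd_thirty_five p hp hdvd with h | h
    · have := (hπ p hp (by omega)).mp hpπ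
      omega
    · have := (hπ p hp (by omega)).mp hpπ
      omega

end Cfsg.Agent.Lib.Helper78.HT
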